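import Cfsg.Agent.H21.PG.Types

/-!
# S4884, block G: the digits used by an element along a primary flag (helper298)

`chainT : ChainT`, `chainZ : ChainZ`, `chainD : ChainD`.
-/

set_option autoImplicit false
set_option linter.unusedSectionVars false

namespace Cfsg.Agent.H298.PG

open Module Submodule Cfsg.Agent.H439.CC Cfsg.Agent.H21.PG

universe u v

section

variable {F : Type u} [Field F] {V : Type v} [AddCommGroup V] [Module F V]

theorem sb_of_map {x : V ≃ₗ[F] V} {A : Submodule F V} (h : A.map (x : V →ₗ[F] V) = A) : Sb x A := by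
  intro v hv
  rw [← h]
  exact ⟨v, hv, rfl⟩

variable [Finite F] [FiniteDimensional F V] {q : ℕ} [Fact q.Prime]

/-- two commuting elements cannot both act without fixed points on `B / A` -/
theorem not_both (hq : (q : F) ≠ 0) {x y : V ≃ₗ[F] V} (hx : x ^ q = 1) {A B : Submodule F V} (hAB : A < B)
    (hB : Sb x B) (hxy : Rg x ≤ Cg y) (h1 : ∀ v ∈ B, Nm q x v ∈ A) (h2 : ∀ v ∈ B, Nm q y v ∈ A) : False := by
  apply hAB.not_ge
  intro v hv
  obtain ⟨a, ha, b, hb, rfl⟩ := hB.split hx hq hv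
  have h3 : (q : F) • a ∈ A := by
    rw [← Nm_fix (q := q) (mem_Cg.1 (hxy ha.2))]
    exact h2 a ha.1
  have h4 : (q : F) • b ∈ A := by
    rw [← Nm_fix (q := q) (mem_Cg.1 hb.2)]
    exact h1 b hb.1
  have key : ∀ w : V, (q : F) • w ∈ A → w ∈ A := by
    intro w hw
    have h6 : w = (q : F)⁻¹ • ((q : F) • w) := by rw [smul_smul, inv_mul_cancel₀ hq, one_smul]
    rw [h6]
    exact smul_mem _ _ hw
  exact add_mem (key a h3) (key b h4)

end

theorem chainT : ChainT.{u, v} := by
  intro F _ _ V _ _ _ q _ Adm X hq ds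
  induction ds with
  | nil =>
    intro A _ _ _ hA hAX
    refine ⟨A, le_rfl, hA, hAX, by simp, fun _ => ∅, fun x _ _ => ⟨by simp, by simp⟩, fun x _ y _ _ _ _ => by simp⟩
  | cons k ds ih =>
    rintro A ⟨B, hAB, hB, hBX, hBk, hprim, hPF⟩ hpos hnd hA hAX
    rw [List.nodup_cons] at hnd
    obtain ⟨W, hBW, hW, hWX, hWs, T, hT1, hT2⟩ := ih B hPF (fun j hj => hpos j (List.mem_cons_of_mem _ hj)) hnd.2 hB hBX
    classical
    refine ⟨W, hAB.le.trans hBW, hW, hWX, by rw [hWs, hBk, List.sum_cons]; ring,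
      fun x => if finrank F (B ⊓ Rg x : Submodule F V) = finrank F (A ⊓ Rg x : Submodule F V) then T x
        else insert k (T x), ?_, ?_⟩
    · intro x hx hxq
      obtain ⟨h1, h2⟩ := hT1 x hx hxq
      have hkT : k ∉ T x := fun h => hnd.1 (h1 k h).1
      by_cases hc : finrank F (B ⊓ Rg x : Submodule F V) = finrank F (A ⊓ Rg x : Submodule F V)
      · simp only [if_pos hc]
        refine ⟨fun j hj => ⟨List.mem_cons_of_mem _ (h1 j hj).1, (h1 j hj).2⟩, ?_⟩
        rw [h2, hc]
      · simp only [if_neg hc]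
        have hN := (prim_cases hxq hq (sb_of_map (hAX x hx)) (sb_of_map (hBX x hx)) hAB.le (hprim x hx)).resolve_left hc
        have h3 := finrank_of_Nm hxq hq (sb_of_map (hAX x hx)) (sb_of_map (hBX x hx)) hAB.le hN
        have h4 : finrank F (B ⊓ Rg x : Submodule F V) = finrank F (A ⊓ Rg x : Submodule F V) + k := by omega
        refine ⟨?_, ?_⟩
        · intro j hj
          rcases Finset.mem_insert.1 hj with rfl | hj
          · refine ⟨List.mem_cons_self, ?_⟩
            have h5 := dvd_inf hxq hq (sb_of_map (hBX x hx))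
            have h6 := dvd_inf hxq hq (sb_of_map (hAX x hx))
            rw [h4] at h5
            exact (Nat.dvd_add_right h6).1 h5
          · exact ⟨List.mem_cons_of_mem _ (h1 j hj).1, (h1 j hj).2⟩
        · rw [Finset.sum_insert hkT, h2, h4]
          ring
    · intro x hx y hy hxq hyq hxy
      have hxT : k ∉ T x := fun h => hnd.1 ((hT1 x hx hxq).1 k h).1
      have hyT : k ∉ T y := fun h => hnd.1 ((hT1 y hy hyq).1 k h).1
      have hd := hT2 x hx y hy hxq hyq hxy
      by_cases hcx : finrank F (B ⊓ Rg x : Submodule F V) = finrank F (A ⊓ Rg x : Submodule F V)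
      · by_cases hcy : finrank F (B ⊓ Rg y : Submodule F V) = finrank F (A ⊓ Rg y : Submodule F V)
        · simp only [if_pos hcx, if_pos hcy]
          exact hd
        · simp only [if_pos hcx, if_neg hcy]
          rw [Finset.disjoint_insert_right]
          exact ⟨hxT, hd⟩
      · by_cases hcy : finrank F (B ⊓ Rg y : Submodule F V) = finrank F (A ⊓ Rg y : Submodule F V)
        · simp only [if_neg hcx, if_pos hcy]
          rw [Finset.disjoint_insert_left]
          exact ⟨hyT, hd⟩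
        · exfalso
          have hN1 := (prim_cases hxq hq (sb_of_map (hAX x hx)) (sb_of_map (hBX x hx)) hAB.le
            (hprim x hx)).resolve_left hcx
          have hN2 := (prim_cases hyq hq (sb_of_map (hAX y hy)) (sb_of_map (hBX y hy)) hAB.le
            (hprim y hy)).resolve_left hcy
          exact not_both hq hxq hAB (sb_of_map (hBX x hx)) hxy hN1 hN2

/-! ### the digits -/

theorem dig_pos {m : ℕ} : ∀ k ∈ dig m, 0 < k := by
  intro k hk
  obtain ⟨i, -, rfl⟩ := List.mem_map.1 hk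
  positivity

theorem dig_sum (m : ℕ) : (dig m).sum = m := Nat.sum_map_two_pow_bitIndices m

theorem dig_nodup (m : ℕ) : (dig m).Nodup := by
  refine List.Nodup.map (Nat.pow_right_injective le_rfl) ?_
  exact (Nat.bitIndices_sorted (n := m)).nodup

theorem dig_pow {m k : ℕ} (hk : k ∈ dig m) : ∃ i, k = 2 ^ i := by
  obtain ⟨i, -, rfl⟩ := List.mem_map.1 hk
  exact ⟨i, rfl⟩

theorem eq_singleton {S : Finset ℕ} (hS : ∀ k ∈ S, ∃ i, k = 2 ^ i) {a : ℕ} (h : ∑ k ∈ S, k = 2 ^ a) :
    S = {2 ^ a} := by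
  classical
  have h1 : S = (S.image (Nat.log 2)).image fun i => 2 ^ i := by
    rw [Finset.image_image]
    ext k
    rw [Finset.mem_image]
    constructor
    · intro hk
      obtain ⟨i, rfl⟩ := hS k hk
      exact ⟨2 ^ i, hk, by simp [Nat.log_pow]⟩
    · rintro ⟨j, hj, rfl⟩
      obtain ⟨i, rfl⟩ := hS j hj
      simpa [Nat.log_pow] using hj
  have h2 : ∑ i ∈ S.image (Nat.log 2), 2 ^ i = 2 ^ a := by
    rw [← h]
    conv_rhs => rw [h1]
    rw [Finset.sum_image fun i _ j _ hij => Nat.pow_right_injective le_rfl hij]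
  have h3 : S.image (Nat.log 2) = {a} := by
    apply Finset.geomSum_injective (n := 2) le_rfl
    simpa using h2
  rw [h1, h3, Finset.image_singleton]

theorem chainZ : ChainZ.{u, v} := by
  intro F _ _ V _ _ _ q _ Adm X m hq hd h0 hPF
  obtain ⟨W, -, hW, hWX, hWs, T, hT1, -⟩ := chainT F V q Adm X hq (dig m) ⊥ hPF dig_pos (dig_nodup m) h0
    (fun x _ => Submodule.map_bot _)
  refine ⟨W, hW, hWX, by rw [hWs, dig_sum, finrank_bot, zero_add], fun x hx hxq => ?_⟩
  obtain ⟨h1, h2⟩ := hT1 x hx hxq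
  have h3 : T x = ∅ := by
    rw [Finset.eq_empty_iff_forall_notMem]
    intro k hk
    obtain ⟨i, rfl⟩ := dig_pow (h1 k hk).1
    obtain ⟨j, -, hj⟩ := (Nat.dvd_prime_pow Nat.prime_two).1 (h1 _ hk).2
    exact hd ⟨j, hj⟩
  rw [h3, Finset.sum_empty, bot_inf_eq, finrank_bot] at h2
  exact Submodule.finrank_eq_zero.1 h2

theorem chainD : ChainD.{u, v} := by
  intro F _ _ V _ _ _ q _ Adm X m a hq h0 hPF
  obtain ⟨W, -, hW, hWX, hWs, T, hT1, hT2⟩ := chainT F V q Adm X hq (dig m) ⊥ hPF dig_pos (dig_nodup m) h0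
    (fun x _ => Submodule.map_bot _)
  refine ⟨W, hW, hWX, by rw [hWs, dig_sum, finrank_bot, zero_add], fun x hx y hy hxq hyq hxy hxa hya => ?_⟩
  have key : ∀ z ∈ X, z ^ q = 1 → finrank F (W ⊓ Rg z : Submodule F V) = 2 ^ a → T z = {2 ^ a} := by
    intro z hz hzq hza
    obtain ⟨h1, h2⟩ := hT1 z hz hzq
    rw [bot_inf_eq, finrank_bot, zero_add, hza] at h2
    exact eq_singleton (fun k hk => dig_pow (h1 k hk).1) h2.symm
  have h1 := hT2 x hx y hy hxq hyq hxy
  rw [key x hx hxq hxa, key y hy hyq hya, Finset.disjoint_singleton] at h1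
  exact h1 rfl

end Cfsg.Agent.H298.PG
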